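import Mathlib
import Cfsg.Agent.H221.CS.Basic

/-!
# S3677, rows `PSp(2n, q)`, `PΩ(2n + 1, q)`, `S = L₂(v^g)`: the sizes, `n ≥ 5`, `n ≠ 6` (helper881, for helper364)
-/

set_option autoImplicit false

namespace Cfsg.Agent.H881.CS.TwoSize

open Finset Cfsg.Agent.H364.SpVal Cfsg.Agent.H364.SpIneq Cfsg.Agent.H364.SpPrim
  Cfsg.Agent.H364.SpTot Cfsg.Agent.H364.SpSmall Cfsg.Agent.H221.CS

/-- the start of the range of `q` -/
def q1 (n : ℕ) : ℕ :=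
  if n = 5 then 8 else if n = 8 then 11 else if n = 10 then 6 else if n = 7 ∨ n = 12 then 4 else 3

/-- the check -/
def chk1 (n : ℕ) : Bool :=
  (2 ^ 12 * lam n ^ 3 * (q1 n + 1) ^ (10 * n) < ((q1 n ^ 2 - 1) ^ ss n) ^ 3 * (q1 n ^ cn n) ^ 3) &&
  (10 * n ≤ 6 * ss n + 3 * cn n)

theorem chk1_all : ∀ n ∈ List.range 48, n < 5 ∨ n = 6 ∨ chk1 n = true := by
  decide +kernel

/-- the check for small `q` -/
def chk2 (n q : ℕ) : Bool :=
  good n q (te n q) && decide (4 * (2 * mm n q + 1) ^ 10 < (q ^ cn n * te n q) ^ 3)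

theorem chk2_all : ∀ n ∈ List.range 48, n < 5 ∨ n = 6 ∨
    ∀ q ∈ List.range (q1 n), q < 2 ∨ (n = 5 ∧ q = 2) ∨ chk2 n q = true := by
  decide +kernel

theorem q1_ge (n : ℕ) : 2 ≤ q1 n := by
  rw [q1]
  split_ifs <;> norm_num

/-- the inequality -/
theorem main_ineq {n q : ℕ} (hn : 5 ≤ n) (h6 : n ≠ 6) (hq : 2 ≤ q) (h : q1 n ≤ q ∨ 48 ≤ n) :
    2 ^ 12 * lam n ^ 3 * (q + 1) ^ (10 * n) < ((q ^ 2 - 1) ^ ss n) ^ 3 * (q ^ cn n) ^ 3 := by
  rcases Nat.lt_or_ge n 48 with h48 | h48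
  · have hq1 : q1 n ≤ q := by omega
    rcases chk1_all n (List.mem_range.2 h48) with h1 | h1 | h1
    · omega
    · omega
    · simp only [chk1, Bool.and_eq_true, decide_eq_true_eq] at h1
      exact mono (q1_ge n) hq1 h1.2 h1.1
  · have hs := ss_bound n
    have hE : 10 * n ≤ 6 * ss n + 3 * 0 := by nlinarith
    have h1 : 2 ^ 12 * lam n ^ 3 * (2 + 1) ^ (10 * n) < ((2 ^ 2 - 1) ^ ss n) ^ 3 * (2 ^ 0) ^ 3 := by
      refine lt_of_le_of_lt ?_ (gen h48)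
      have h2 : 3 ^ (10 * n) ≤ 3 ^ (2 * n) * 3 ^ (8 * n + 3) := by
        rw [← pow_add]
        exact Nat.pow_le_pow_right (by norm_num) (by omega)
      have h3 : 2 ^ 12 * 3 ^ (2 * n) ≤ 4 ^ (5 * n) := by
        have h4 : (4 : ℕ) ^ (5 * n) = 2 ^ (2 * n) * 16 ^ (2 * n) := by
          rw [← mul_pow, pow_mul, pow_mul]
          norm_num
        rw [h4]
        exact Nat.mul_le_mul (Nat.pow_le_pow_right (by norm_num) (by omega)) (Nat.pow_le_pow_left (by norm_num) _)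
      have h5 : 1 ≤ n ^ 3 := Nat.one_le_pow _ _ (by omega)
      calc 2 ^ 12 * lam n ^ 3 * (2 + 1) ^ (10 * n) ≤ 2 ^ 12 * lam n ^ 3 * (3 ^ (2 * n) * 3 ^ (8 * n + 3)) :=
            Nat.mul_le_mul_left _ h2
        _ = lam n ^ 3 * (2 ^ 12 * 3 ^ (2 * n)) * 1 * 3 ^ (8 * n + 3) := by ring
        _ ≤ lam n ^ 3 * 4 ^ (5 * n) * n ^ 3 * (2 + 1) ^ (8 * n + 3) := by
            apply Nat.mul_le_mul_right
            exact Nat.mul_le_mul (Nat.mul_le_mul_left _ h3) h5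
    have h2 := mono (le_refl 2) hq hE h1
    rw [pow_zero, one_pow, mul_one] at h2
    exact h2.trans_le (Nat.le_mul_of_pos_right _ (pow_pos (pow_pos (by omega) _) _))

theorem two_mm_le {n q : ℕ} (hq : 2 ≤ q) (hn : 5 ≤ n) : 2 * mm n q + 1 ≤ 2 * (q + 1) ^ n := by
  have h1 := mm_le hq (show 1 ≤ n by omega)
  have h2 : q ^ n + 2 ≤ (q + 1) ^ n := by
    obtain ⟨k, rfl⟩ : ∃ k, n = k + 1 := ⟨n - 1, by omega⟩
    have h3 : q ^ k * 1 ≤ (q + 1) ^ k * 1 := Nat.mul_le_mul_right _ (Nat.pow_le_pow_left (by omega) k)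
    have h4 : q ^ k * q ≤ (q + 1) ^ k * q := Nat.mul_le_mul_right _ (Nat.pow_le_pow_left (by omega) k)
    have h5 : 2 ≤ (q + 1) ^ k := by
      calc 2 ≤ (q + 1) ^ 1 := by rw [pow_one]; omega
        _ ≤ (q + 1) ^ k := Nat.pow_le_pow_right (by omega) (by omega)
    rw [pow_succ, pow_succ, mul_add, mul_one]
    omega
  omega

/-- **The sizes.** -/
theorem size {n q I MS : ℕ} (hn : 5 ≤ n) (h6 : n ≠ 6) (h52 : ¬ (n = 5 ∧ q = 2)) (hq : 2 ≤ q) (hd : Fr n q I MS)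
    (h0 : 0 < I * MS) (hle : (I * MS) ^ 3 ≤ 4 * (2 * mm n q + 1) ^ 10) : False := by
  by_cases hb : q1 n ≤ q ∨ 48 ≤ n
  · have h1 := main_ineq hn h6 hq hb
    have h2 := Nat.le_of_dvd h0 (hd.gen hq (by omega))
    have h3 := tt_ge (n := n) (Q := q ^ 2) (by nlinarith)
    have h4 : ((q ^ 2 - 1) ^ ss n) ^ 3 * (q ^ cn n) ^ 3 ≤ lam n ^ 3 * (I * MS) ^ 3 := by
      calc ((q ^ 2 - 1) ^ ss n) ^ 3 * (q ^ cn n) ^ 3 ≤ (tt n (q ^ 2) * lam n) ^ 3 * (q ^ cn n) ^ 3 :=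
            Nat.mul_le_mul_right _ (Nat.pow_le_pow_left h3 3)
        _ = lam n ^ 3 * (q ^ cn n * tt n (q ^ 2)) ^ 3 := by ring
        _ ≤ _ := Nat.mul_le_mul_left _ (Nat.pow_le_pow_left h2 3)
    have h5 : (2 * mm n q + 1) ^ 10 ≤ (2 * (q + 1) ^ n) ^ 10 := Nat.pow_le_pow_left (two_mm_le hq hn) 10
    have h6' : lam n ^ 3 * (I * MS) ^ 3 ≤ 2 ^ 12 * lam n ^ 3 * (q + 1) ^ (10 * n) := by
      calc lam n ^ 3 * (I * MS) ^ 3 ≤ lam n ^ 3 * (4 * (2 * (q + 1) ^ n) ^ 10) :=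
            Nat.mul_le_mul_left _ (hle.trans (Nat.mul_le_mul_left 4 h5))
        _ = _ := by rw [mul_pow, ← pow_mul, mul_comm n 10]; ring
    omega
  · push Not at hb
    rcases chk2_all n (List.mem_range.2 hb.2) with h1 | h1 | h1
    · omega
    · exact h6 h1
    · rcases h1 q (List.mem_range.2 hb.1) with h2 | h2 | h2
      · omega
      · exact h52 h2
      · rw [chk2, Bool.and_eq_true, decide_eq_true_eq] at h2
        have h3 := Nat.le_of_dvd h0 (hd.good hq h2.1)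
        have h4 := Nat.pow_le_pow_left h3 3
        omega

end Cfsg.Agent.H881.CS.TwoSize
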