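import Mathlib
import Cfsg.Agent.H221.CS.Basic
import Cfsg.Agent.H364.SpTwo

/-!
# S3677, rows `PSp(2n, q)`, `PΩ(2n + 1, q)`, `S = L₂(v^g)`: `n = 3` and `n = 5`, `q = 2` (helper881, for helper364)
-/

set_option autoImplicit false

namespace Cfsg.Agent.H881.CS.TwoThree

open Subgroup Cfsg.Agent.H902.Lte Cfsg.Agent.H902.Art Cfsg.Agent.H364.SpVal
  Cfsg.Agent.H364.SpSmall Cfsg.Agent.H221.CS Cfsg.Agent.H364.SpTwo

universe u

variable {n p f M κ : ℕ} {Γ : Type u} [Group Γ] [Finite Γ] {S : Subgroup Γ}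

/-- the structure of helper364 -/
theorem tw (h : Dat n p f M κ Γ S) (h32 : ¬ (n = 3 ∧ p ^ f = 2)) {v g : ℕ} (hvp : v ≠ p)
    (hX : Real (.L 2) v g (Nat.card S)) (hI : S.index ∣ Nat.gcd 2 (v ^ g - 1) * g) :
    Tw n p f M v g (Nat.card S) S.index :=
  ⟨h.hY, hX, hvp, h.pi, hI, h.fr h32⟩

/-- **`n = 5`, `q = 2`.** -/
theorem five (h : Dat 5 p f M κ Γ S) (hq : p ^ f = 2) {v g : ℕ} (hvp : v ≠ p)
    (hX : Real (.L 2) v g (Nat.card S)) (hI : S.index ∣ Nat.gcd 2 (v ^ g - 1) * g) : False :=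
  Cfsg.Agent.H364.SpTwo.five (tw h (by omega) hvp hX hI) hq

theorem AA_three_two : AA 3 2 = 2835 := by decide

theorem chk : ∀ V ∈ List.range 16, ∀ g ∈ List.range 4, V < 2 ∨ g = 0 ∨ ¬ 2835 ∣ g * (V * (V ^ 2 - 1)) := by
  decide +kernel

/-- **`n = 3`.** `A` is the order of the centralizer of an element of order `r`. -/
theorem three (h : Dat 3 p f M κ Γ S) {v g : ℕ} (hvp : v ≠ p)
    (hX : Real (.L 2) v g (Nat.card S)) (hI : S.index ∣ Nat.gcd 2 (v ^ g - 1) * g)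
    (hA : ∃ A, A ∣ mm 3 (p ^ f) ∧ (A = v ^ g ∨ Nat.gcd 2 (v ^ g - 1) * A = v ^ g + 1 ∨
      Nat.gcd 2 (v ^ g - 1) * A = v ^ g - 1)) : False := by
  obtain ⟨A, hAm, hA⟩ := hA
  have hq := h.q_ge
  have hv := hX.hp
  have hV4 : 4 ≤ v ^ g := hX.ok.2 rfl
  by_cases h2 : p ^ f = 2
  · -- `q = 2`
    rw [h2] at hAm
    have h7 : mm 3 2 = 7 := by decide
    rw [h7] at hAm
    have hA7 := Nat.le_of_dvd (by norm_num) hAm
    have hp2 : p = 2 := by
      have h1 : p ∣ 2 := by rw [← h2]; exact dvd_pow_self p (by have := h.hY.hf; omega)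
      exact (Nat.prime_dvd_prime_iff_eq h.hY.hp Nat.prime_two).1 h1
    have hV : v ^ g ≤ 15 := by
      have hg2 : Nat.gcd 2 (v ^ g - 1) ≤ 2 := Nat.gcd_le_left _ (by norm_num)
      have h3 : Nat.gcd 2 (v ^ g - 1) * A ≤ 2 * 7 := Nat.mul_le_mul hg2 hA7
      omega
    have hg3 : g < 4 := by
      by_contra hcon
      have h3 : 2 ^ 4 ≤ v ^ g :=
        (Nat.pow_le_pow_right (by norm_num) (by omega : 4 ≤ g)).trans (Nat.pow_le_pow_left hv.two_le g)
      omega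
    obtain ⟨j, hj⟩ := h.kap32 rfl h2
    have hdiv : 2835 ∣ S.index * Nat.card S := by
      have h1 := h.hY.eq
      have e1 : num (.C 3) (p ^ f) = AA 3 (p ^ f) := rfl
      have e2 : dd (.C 3) (p ^ f) = Nat.gcd 2 (p ^ f - 1) := rfl
      rw [e1, e2, ← h.card_eq, hj, h2, AA_three_two] at h1
      have h3 : 2835 ∣ 8 ^ j * (S.index * Nat.card S) := by
        have h4 : Nat.gcd 2 (2 - 1) * (8 ^ j * (Nat.card S * S.index)) = 8 ^ j * (S.index * Nat.card S) := by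
          rw [show Nat.gcd 2 (2 - 1) = 1 from rfl, one_mul, mul_comm S.index]
        rw [← h4, h1]
        exact Dvd.intro_left _ rfl
      exact (Nat.Coprime.pow_right j (by norm_num)).dvd_of_dvd_mul_left h3
    have h3 := dvd_all hX hI hdiv
    have hf := hX.hf
    rcases chk (v ^ g) (List.mem_range.2 (by omega)) g (List.mem_range.2 hg3) with h4 | h4 | h4
    · omega
    · omega
    · exact h4 h3
  · obtain ⟨h3, h64⟩ := Cfsg.Agent.H364.SpTwo.three (tw h (by omega) hvp hX hI) (by omega)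
    rw [h3] at hAm
    have h13 : mm 3 3 = 13 := by decide
    rw [h13] at hAm
    have hA13 := Nat.le_of_dvd (by norm_num) hAm
    rw [h64] at hA
    norm_num at hA
    omega

end Cfsg.Agent.H881.CS.TwoThree
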